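-- Team project CHO (S1082 / S1083): the packages [XGL-D4] and [XGL-B2] (helper74).
import Mathlib
import Cfsg.Agent.Lib.Helper99.CHO.Defs
import Cfsg.Agent.Lib.Helper18.ChevUnits

set_option autoImplicit false

namespace Cfsg.Agent.Lib.Helper74.CHO

open Cfsg.Lie Cfsg.Agent.Lib.Helper99.CHO

universe u

/-- [XGL] for any of the seven data. -/
theorem pkgXGL_of (D : ChevalleyDatum)
    (hD : D ∈ [chevG2, chevB2, chevD4, chevF4, chevE6, chevE7, chevE8]) : PkgXGL.{u} D := by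
  intro K _ r t
  refine ⟨Cfsg.Agent.Lib.Helper18.xU D hD r.val t, ?_⟩
  rw [Cfsg.Agent.Lib.Helper18.coe_xU, ChevalleyDatum.x, dif_pos r.2]

/-- [XGL-D4]. -/
theorem pkgXGLD4 : PkgXGL.{u} chevD4 := pkgXGL_of chevD4 (by simp)

/-- [XGL-B2]. -/
theorem pkgXGLB2 : PkgXGL.{u} chevB2 := pkgXGL_of chevB2 (by simp)

end Cfsg.Agent.Lib.Helper74.CHO
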